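import Cfsg.Agent.H411.PrA.Basic
import Cfsg.Agent.H334.PrA.Blocks
import Cfsg.Agent.S0713

/-!
# S3618, part A: the type of an orbit
-/

set_option autoImplicit false

open Equiv Equiv.Perm MulAction Finset Cfsg.Agent.H411.PrA

namespace Cfsg.Agent.H334.PrA

universe u

variable {Ω : Type u}

/-- a subgroup of `M_a` containing all elements of order `p` is `M_a` -/
theorem top_of_gen {p : ℕ} {K : Subgroup (Perm Ω)} {a : Ω} (N : Subgroup ↥(M p K a))
    (h : ∀ z : ↥(M p K a), orderOf z = p → z ∈ N) : N = ⊤ := by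
  have h1 : M p K a ≤ N.map (M p K a).subtype := by
    refine (Subgroup.closure_le _).mpr ?_
    rintro z ⟨hz, hzp, hza⟩
    refine ⟨⟨z, mem_M hz hzp hza⟩, h _ ?_, rfl⟩
    rw [Subgroup.orderOf_mk, hzp]
  rw [eq_top_iff]
  intro z _
  obtain ⟨y, hy, e⟩ := h1 z.2
  have : y = z := Subtype.ext e
  rwa [← this]

theorem hom_sign {p : ℕ} (hp2 : Odd p) {K : Subgroup (Perm Ω)} {a : Ω} (ψ : ↥(M p K a) →* ℤˣ) (z : ↥(M p K a)) :
    ψ z = 1 := by
  have h : ψ.ker = ⊤ := by
    refine top_of_gen _ fun z hz => ?_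
    rw [MonoidHom.mem_ker]
    have h0 : z ^ p = 1 := orderOf_dvd_iff_pow_eq_one.1 (dvd_of_eq hz)
    have h1 : ψ z ^ p = 1 := by rw [← map_pow, h0, map_one]
    rcases Int.units_eq_one_or (ψ z) with h2 | h2
    · exact h2
    · rw [h2, hp2.neg_one_pow] at h1
      exact absurd h1 (by decide)
  have h1 : z ∈ ψ.ker := by rw [h]; exact Subgroup.mem_top z
  exact h1

variable [Fintype Ω] [DecidableEq Ω] {p q : ℕ} {K : Subgroup (Perm Ω)}

theorem odd_p (h : Setup p q K) : Odd p := by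
  have h1 := h.two_le
  have h2 := h.lt
  exact h.prime.odd_of_ne_two (by omega)

theorem orb_eq (p : ℕ) (K : Subgroup (Perm Ω)) (a b : Ω) : orb p K a b = ob (M p K a) b := by
  ext c
  unfold orb ob
  simp

section blk

variable (h : Setup p q K) {a b : Ω} (hab : b ≠ a) {W : Subgroup ↥(M p K a)}
  (hWc : IsCoatom W) (hW : ∀ m : ↥(M p K a), (m : Perm Ω) b = b → m ∈ W)

/-- the permutation representation on the blocks -/
noncomputable def rep (W : Subgroup ↥(M p K a)) : ↥(M p K a) →* Perm (↥(M p K a) ⧸ W) :=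
  MulAction.toPermHom ↥(M p K a) (↥(M p K a) ⧸ W)

omit [Fintype Ω] [DecidableEq Ω] in
theorem rep_apply (m : ↥(M p K a)) (B : ↥(M p K a) ⧸ W) : rep W m B = m • B := rfl

omit [Fintype Ω] [DecidableEq Ω] in
include hWc in
theorem nontriv : Nontrivial (↥(M p K a) ⧸ W) := by
  by_contra hn
  rw [not_nontrivial_iff_subsingleton] at hn
  apply hWc.1
  rw [eq_top_iff]
  intro m _
  have h1 : ((m : ↥(M p K a)) : ↥(M p K a) ⧸ W) = ((1 : ↥(M p K a)) : ↥(M p K a) ⧸ W) := Subsingleton.elim _ _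
  rw [QuotientGroup.eq, mul_one] at h1
  simpa using W.inv_mem h1

omit [Fintype Ω] [DecidableEq Ω] in
include hWc in
theorem prim_quot : IsPreprimitive ↥(M p K a) (↥(M p K a) ⧸ W) := by
  have := nontriv hWc
  rw [← isCoatom_stabilizer_iff_preprimitive (G := ↥(M p K a)) ((1 : ↥(M p K a)) : ↥(M p K a) ⧸ W),
    MulAction.stabilizer_quotient]
  exact hWc

omit [Fintype Ω] [DecidableEq Ω] in
include hWc in
theorem prim_range : IsPreprimitive (rep W).range (↥(M p K a) ⧸ W) := by
  have := prim_quot hWc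
  let f : (↥(M p K a) ⧸ W) →ₑ[(rep W).rangeRestrict] (↥(M p K a) ⧸ W) := ⟨id, fun _ _ => rfl⟩
  exact IsPreprimitive.of_surjective (f := f) Function.surjective_id

include h hWc in
/-- elements of order `p` act non-trivially on the blocks -/
theorem rep_ne_one (y : ↥(M p K a)) (hy : orderOf y = p) : rep W y ≠ 1 := by
  intro h1
  have hN : (rep W).ker = ⊤ := by
    refine top_of_gen _ fun z hz => ?_
    obtain ⟨k, hk, hkz⟩ := h.conj (M p K a) (M_le a) z y z.2 y.2 ((Subgroup.orderOf_coe z).trans hz)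
      ((Subgroup.orderOf_coe y).trans hy)
    obtain ⟨i, hi⟩ := Subgroup.mem_zpowers_iff.1 hkz
    have h2 : (⟨k, hk⟩ : ↥(M p K a)) * z * (⟨k, hk⟩ : ↥(M p K a))⁻¹ = y ^ i := by
      apply Subtype.ext
      rw [Subgroup.coe_zpow, hi]
      rfl
    have h3 : z = (⟨k, hk⟩ : ↥(M p K a))⁻¹ * y ^ i * (⟨k, hk⟩ : ↥(M p K a)) := by
      rw [← h2]; group
    rw [MonoidHom.mem_ker, h3, map_mul, map_mul, map_zpow, h1, one_zpow, mul_one, ← map_mul, inv_mul_cancel, map_one]
  obtain ⟨B, C, hBC⟩ := nontriv hWc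
  apply hBC
  obtain ⟨m, hm⟩ := MulAction.exists_smul_eq ↥(M p K a) B C
  have h2 : m ∈ (rep W).ker := by rw [hN]; exact Subgroup.mem_top m
  rw [MonoidHom.mem_ker] at h2
  rw [← hm, ← rep_apply, h2]
  rfl

omit [Fintype Ω] [DecidableEq Ω] in
include hab hWc hW in
/-- the alternating type -/
theorem altType_of {u : ℕ} (hu3 : 3 ≤ u) (hup : u < p) (φ : ↥(M p K a) →* alternatingGroup (Fin (p + u)))
    (hφ : Function.Surjective φ) (hker : ∀ m, φ m = 1 → rep W m = 1) {c : Ω} {k : Perm Ω} (hk : k ∈ M p K a)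
    (hkc : k b = c)
    {x : Perm Ω} (hx : x ∈ K) (hxp : orderOf x = p) (hxa : x a = a) (hxc : x c = c)
    (h5 : 5 ≤ u ∨ ∃ i, ∀ y : ↥(M p K a), (y : Perm Ω) c = c → (φ y : Perm (Fin (p + u))) i = i) : AltType p K a := by
  refine ⟨u, hu3, hup, φ, hφ, c, ?_, ⟨x, hx, hxp, hxa, hxc⟩, ?_, h5⟩
  · intro e
    apply hab
    apply k.injective
    rw [hkc, e, M_fix hk]
  · intro hbad
    obtain ⟨B, C, hBC⟩ := nontriv hWc
    -- the group fixes the block of `c`
    have h1 : ∀ m : ↥(M p K a), m • ((⟨k, hk⟩ : ↥(M p K a)) : ↥(M p K a) ⧸ W) = ((⟨k, hk⟩ : ↥(M p K a)) : ↥(M p K a) ⧸ W) := by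
      intro m
      obtain ⟨y, hy, hym⟩ := hbad (φ m)
      have h2 : rep W (y⁻¹ * m) = 1 := hker _ (by rw [map_mul, map_inv, hym, inv_mul_cancel])
      have h3 : m = y * (y⁻¹ * m) := by group
      rw [h3, mul_smul, ← rep_apply (y⁻¹ * m), h2, Perm.one_apply]
      show ((y * ⟨k, hk⟩ : ↥(M p K a)) : ↥(M p K a) ⧸ W) = _
      rw [QuotientGroup.eq]
      have h4 : (y * ⟨k, hk⟩)⁻¹ * ⟨k, hk⟩ = ((⟨k, hk⟩ : ↥(M p K a))⁻¹ * y⁻¹ * ⟨k, hk⟩ : ↥(M p K a)) := by group
      rw [h4]
      apply hW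
      show k⁻¹ ((y : Perm Ω)⁻¹ (k b)) = b
      rw [hkc, Perm.inv_eq_iff_eq, Perm.inv_eq_iff_eq, hkc, hy]
    have h2 : ∀ D : ↥(M p K a) ⧸ W, D = ((⟨k, hk⟩ : ↥(M p K a)) : ↥(M p K a) ⧸ W) := by
      intro D
      obtain ⟨m, hm⟩ := MulAction.exists_smul_eq ↥(M p K a) ((⟨k, hk⟩ : ↥(M p K a)) : ↥(M p K a) ⧸ W) D
      rw [← hm, h1]
    exact hBC ((h2 B).trans (h2 C).symm)

/-- arithmetic for the pairs -/
theorem arith {p k s u c r : ℕ} (hp3 : 3 ≤ p) (hc : c = p + u) (hr : r = c.choose 2) (hk : 2 * k + p + 1 = 2 * c) (hrs : r = k * p + s)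
    (hkp : k < p) (h5 : 5 * k < 2 * (s + 1)) : 5 ≤ u ∧ u < p ∧ 1 ≤ s := by
  subst hc
  have h1 : r * 2 = (p + u) * (p + u - 1) := by
    rw [hr, Nat.choose_two_right]
    exact Nat.div_mul_cancel (Nat.even_mul_pred_self _).two_dvd
  have hkk : 2 * k + 1 = p + 2 * u := by omega
  have hp1 : 1 ≤ p := by omega
  obtain ⟨v, hv⟩ : ∃ v, p + u = v + 1 := ⟨p + u - 1, by omega⟩
  have h2 : r * 2 = (v + 1) * v := by rw [h1, hv, Nat.add_sub_cancel]
  have h3 : 2 * s + u = u * u := by
    have h4 : ((v + 1) * v : ℤ) = r * 2 := by exact_mod_cast h2.symm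
    have h5 : (r : ℤ) = k * p + s := by exact_mod_cast hrs
    have h6 : (p : ℤ) + u = v + 1 := by exact_mod_cast hv
    have h7 : (2 * k + 1 : ℤ) = p + 2 * u := by exact_mod_cast hkk
    have h8 : (2 * s + u : ℤ) = u * u := by
      have e1 : (v : ℤ) = p + u - 1 := by linarith
      have e2 : (2 * k : ℤ) = p + 2 * u - 1 := by linarith
      have e3 : (2 * s : ℤ) = (v + 1) * v - 2 * k * p := by rw [h4, h5]; ring
      rw [e3, e1, e2]; ring
    exact_mod_cast h8
  have h9 : 2 * u ≤ p := by omega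
  have h10 : 10 * k < 4 * s + 4 := by omega
  have h11 : 10 < u := by
    by_contra hle
    have hle' : u ≤ 10 := by omega
    interval_cases u <;> omega
  refine ⟨by omega, by omega, ?_⟩
  nlinarith

theorem sq_dvd_factorial {p r : ℕ} (hp : p.Prime) (h : 2 * p ≤ r) : p ^ 2 ∣ r.factorial := by
  have h1 : p.factorial * p.factorial ∣ (p + p).factorial := Nat.factorial_mul_factorial_dvd_factorial_add p p
  have h2 : p ∣ p.factorial := Nat.dvd_factorial hp.pos le_rfl
  have h3 : (p + p).factorial ∣ r.factorial := Nat.factorial_dvd_factorial (by omega)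
  rw [sq]
  exact ((mul_dvd_mul h2 h2).trans h1).trans h3

open Classical in
theorem orbit_type (h : Setup p q K) (h2T : TwoT.{u} p) (hIH : Claim.{u} p (Fintype.card Ω)) (a b : Ω) (hab : b ≠ a)
    (x : Perm Ω) (hx : x ∈ K) (hxp : orderOf x = p) (hxa : x a = a) :
    AltType p K a ∨ ∃ κ : ℕ, 1 ≤ κ ∧ mv x (orb p K a b) = κ * p ∧
      (2 * fx x (orb p K a b) + 2 ≤ 5 * κ ∨ (κ = 1 ∧ fx x (orb p K a b) = 2 ∧ Two p K a (orb p K a b))) := by
  have _ := h2T
  have hpf : Fact p.Prime := ⟨h.prime⟩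
  have hp3 : 3 ≤ p := by have := h.two_le; have := h.lt; omega
  rw [orb_eq]
  obtain ⟨y, hyK, hyp, hya, hyb⟩ := h.exists_move a b hab
  have hne : MulAction.stabilizer ↥(M p K a) b ≠ ⊤ := by
    intro e
    have h1 : (⟨y, mem_M hyK hyp hya⟩ : ↥(M p K a)) ∈ MulAction.stabilizer ↥(M p K a) b := by
      rw [e]; exact Subgroup.mem_top _
    exact hyb h1
  obtain ⟨W, hWc, hWle⟩ := (eq_top_or_exists_le_coatom (MulAction.stabilizer ↥(M p K a) b)).resolve_left hne
  have hW : ∀ m : ↥(M p K a), (m : Perm Ω) b = b → m ∈ W := fun m hm => hWle hm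
  let BB : Type u := ↥(M p K a) ⧸ W
  let _ : Fintype BB := Fintype.ofFinite _
  have hnt : Nontrivial BB := nontriv hWc
  have hpr : IsPreprimitive (rep W).range BB := prim_range hWc
  obtain ⟨x', hx'⟩ : ∃ x' : ↥(M p K a), (x' : Perm Ω) = x := ⟨⟨x, mem_M hx hxp hxa⟩, rfl⟩
  have hx'p : orderOf x' = p := by rw [← Subgroup.orderOf_coe x', hx', hxp]
  have hx'1 : x' ^ p = 1 := orderOf_dvd_iff_pow_eq_one.1 (dvd_of_eq hx'p)
  obtain ⟨xb, hxb⟩ : ∃ xb : Perm BB, xb = rep W x' := ⟨_, rfl⟩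
  have hxb1 : xb ≠ 1 := by rw [hxb]; exact rep_ne_one h hWc x' hx'p
  have hxbp : orderOf xb = p := orderOf_eq_prime (by rw [hxb, ← map_pow, hx'1, map_one]) hxb1
  have hxbm : xb ∈ (rep W).range := by rw [hxb]; exact ⟨x', rfl⟩
  obtain ⟨n, hn⟩ := cycleType_prime_order (σ := xb) (by rw [hxbp]; exact h.prime)
  rw [hxbp] at hn
  have hsupp : xb.support.card = (n + 1) * p := by rw [← sum_cycleType, hn, Multiset.sum_replicate, smul_eq_mul]
  obtain ⟨k, hk⟩ : ∃ k, k = n + 1 := ⟨_, rfl⟩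
  rw [← hk] at hsupp
  obtain ⟨w, hw⟩ : ∃ w, w = wd (M p K a) b W := ⟨_, rfl⟩
  have hw1 : 1 ≤ w := by rw [hw]; exact wd_pos hW
  have hmov : (univ.filter fun B : ↥(M p K a) ⧸ W => x' • B ≠ B).card = k * p := by
    rw [← hsupp]
    congr 1
    ext B
    rw [mem_filter, mem_support, hxb, rep_apply]
    simp
  obtain ⟨s, hs⟩ : ∃ s, s = (univ.filter fun B : ↥(M p K a) ⧸ W => x' • B = B).card := ⟨_, rfl⟩
  have hcard : Fintype.card BB = k * p + s := by
    have h1 := Finset.card_filter_add_card_filter_not (s := (univ : Finset (↥(M p K a) ⧸ W))) (fun B => x' • B = B)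
    rw [← hs, Finset.card_univ] at h1
    rw [← hmov]
    have h2 : Fintype.card BB = Fintype.card (↥(M p K a) ⧸ W) := rfl
    rw [h2, ← h1, add_comm]
  have hmv1 : k * p * w ≤ mv x (ob (M p K a) b) := by
    have h1 := le_moved hW x'
    rw [hmov, hx', ← hw] at h1
    exact h1
  have hmv2 : mv x (ob (M p K a) b) ≤ q * p := by
    rw [← h.supp x hx hxp]
    apply Finset.card_le_card
    intro c hc
    rw [mem_support]
    exact (mem_filter.1 hc).2
  have hkw : k * w ≤ q := by
    have h1 : (k * w) * p ≤ q * p := by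
      calc (k * w) * p = k * p * w := by ring
        _ ≤ _ := hmv1.trans hmv2
    exact Nat.le_of_mul_le_mul_right h1 h.prime.pos
  have hqp := h.lt
  have hk1 : 1 ≤ k := by omega
  have hwq : w ≤ q := le_trans (Nat.le_mul_of_pos_left w hk1) hkw
  have hkq : k ≤ q := le_trans (Nat.le_mul_of_pos_right k hw1) hkw
  have hwp : wd (M p K a) b W < p := by rw [← hw]; omega
  have hmv : mv x (ob (M p K a) b) = (k * w) * p := by
    have h1 := moved_eq hW h.prime hwp x' hx'1
    rw [hmov, hx', ← hw] at h1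
    have h2 : mv x (ob (M p K a) b) = k * p * w := h1
    rw [h2]; ring
  have hfx : fx x (ob (M p K a) b) = s * w := by
    have h1 := fixed_eq hW h.prime hwp x' hx'1
    rw [← hs, hx', ← hw] at h1
    exact h1
  have htrans : ∀ B C : BB, ∃ m : ↥(M p K a), m • B = C := fun B C => MulAction.exists_smul_eq ↥(M p K a) B C
  have hXcard : ¬ p ^ 2 ∣ Nat.card (rep W).range := by
    intro hd
    apply h.sylow
    refine hd.trans ((Subgroup.card_range_dvd (rep W)).trans (Subgroup.card_dvd_of_le (M_le a)))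
  -- a point over a fixed block
  have hfixpt : 1 ≤ s → ∃ c : Ω, ∃ k' ∈ M p K a, k' b = c ∧ x c = c := by
    intro hs1
    rw [hs, Nat.one_le_iff_ne_zero, Finset.card_ne_zero] at hs1
    obtain ⟨B, hB⟩ := hs1
    have hB' : x' • B = B := (mem_filter.1 hB).2
    obtain ⟨m, rfl⟩ := QuotientGroup.mk_surjective B
    refine ⟨(m : Perm Ω) b, m, m.2, rfl, ?_⟩
    have h1 := moved_iff hW h.prime hwp x' hx'1 (c := (m : Perm Ω) b) (mem_ob.2 ⟨m, m.2, rfl⟩)
    rw [pr_apply hW m, hx'] at h1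
    by_contra h2
    exact h1.1 h2 hB'
  by_cases hcase : 2 * (s * w) + 2 ≤ 5 * (k * w)
  · right
    refine ⟨k * w, Nat.mul_pos hk1 hw1, hmv, Or.inl ?_⟩
    rw [hfx]; exact hcase
  have hsk : 5 * k < 2 * (s + 1) := by
    by_contra h1
    apply hcase
    have h2 : 2 * (s + 1) ≤ 5 * k := by omega
    calc 2 * (s * w) + 2 ≤ 2 * (s * w) + 2 * w := by omega
      _ = 2 * (s + 1) * w := by ring
      _ ≤ 5 * k * w := Nat.mul_le_mul_right w h2
      _ = 5 * (k * w) := by ring
  rcases Nat.lt_or_ge k 2 with hk2 | hk2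
  · -- one cycle
    have hk' : k = 1 := by omega
    subst hk'
    rw [one_mul] at hsupp hcase hmv hcard
    have hcyc : xb.IsCycle := by
      rw [← card_cycleType_eq_one, hn, ← hk, Multiset.card_replicate]
    have hs2 : 2 ≤ s := by omega
    rcases Nat.lt_or_ge s 3 with hs3 | hs3
    · -- two fixed blocks
      right
      have hs' : s = 2 := by omega
      have hw' : w = 1 := by
        rw [hs'] at hcase
        omega
      refine ⟨1, le_rfl, by rw [hmv, hw', one_mul], Or.inr ⟨rfl, by rw [hfx, hs', hw'], ?_⟩⟩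
      have h2t : IsMultiplyPretransitive (rep W).range BB 2 := by
        refine hpr.is_two_pretransitive (s := ((xb.support : Set BB))ᶜ) (n := 1) ?_ ?_
          (isPretransitive_of_isCycle_mem hcyc hxbm)
        · rw [← Finset.coe_compl, Set.ncard_coe_finset, Finset.card_compl, hcard, hsupp, hs']
          omega
        · rw [Nat.card_eq_fintype_card, hcard, hs']
          omega
      rw [is_two_pretransitive_iff] at h2t
      have hinj : ∀ c ∈ ob (M p K a) b, ∀ d ∈ ob (M p K a) b, pr (M p K a) b W c = pr (M p K a) b W d → c = d := by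
        intro c hc d hd hcd
        have h1 := card_block hW (pr (M p K a) b W d)
        rw [← hw, hw'] at h1
        exact Finset.card_le_one.1 h1.le c (mem_filter.2 ⟨hc, hcd⟩) d (mem_filter.2 ⟨hd, rfl⟩)
      intro c hc d hd c' hc' d' hd' hcd hcd'
      obtain ⟨⟨g, m, rfl⟩, h1, h2⟩ := h2t (fun e => hcd (hinj c hc d hd e)) (fun e => hcd' (hinj c' hc' d' hd' e))
      refine ⟨m, m.2, ?_, ?_⟩
      · apply hinj _ (smul_mem_ob m hc) _ hc'
        rw [pr_smul hW m hc]
        exact h1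
      · apply hinj _ (smul_mem_ob m hd) _ hd'
        rw [pr_smul hW m hd]
        exact h2
    · -- Jordan
      left
      have hle := Cfsg.Agent.S0713.result (rep W).range hpr h.prime (by rw [hcard]; omega) (by rw [hcard]; omega) hcyc
        hsupp hxbm
      have hsp : s < p := by
        by_contra hsp
        apply hXcard
        have h1 : p ^ 2 ∣ (Fintype.card BB).factorial := sq_dvd_factorial h.prime (by omega)
        rw [← Fintype.card_perm, ← two_mul_card_alternatingGroup] at h1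
        have h2 : Nat.Coprime (p ^ 2) 2 := Nat.Coprime.pow_left 2 (Nat.coprime_two_right.2 (odd_p h))
        have h3 := h2.dvd_of_dvd_mul_left h1
        rw [← Nat.card_eq_fintype_card] at h3
        exact h3.trans (Subgroup.card_dvd_of_le hle)
      obtain ⟨c, k', hk'm, hk'c, hxc⟩ := hfixpt (by omega)
      have hmem : ∀ m, rep W m ∈ alternatingGroup BB := by
        intro m
        rw [Equiv.Perm.mem_alternatingGroup]
        exact hom_sign (odd_p h) (Equiv.Perm.sign.comp (rep W)) m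
      let ρ : ↥(M p K a) →* alternatingGroup BB := (rep W).codRestrict (alternatingGroup BB) hmem
      have hρ : Function.Surjective ρ := by
        intro σ
        obtain ⟨m, hm⟩ := hle σ.2
        exact ⟨m, Subtype.ext hm⟩
      let e0 : BB ≃ Fin (p + s) := Fintype.equivFinOfCardEq hcard
      refine altType_of hab hWc hW hs3 hsp ((Equiv.altCongrHom e0).toMonoidHom.comp ρ)
        ((Equiv.altCongrHom e0).surjective.comp hρ) ?_ hk'm hk'c hx hxp hxa hxc
        (Or.inr ⟨e0 (pr (M p K a) b W c), ?_⟩)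
      · intro m hm
        have h1 : Equiv.altCongrHom e0 (ρ m) = 1 := hm
        have h2 := (map_eq_one_iff _ (Equiv.altCongrHom e0).injective).1 h1
        exact congrArg Subtype.val h2
      · intro y hy
        have h1 : ((((Equiv.altCongrHom e0).toMonoidHom.comp ρ) y : alternatingGroup (Fin (p + s))) : Perm (Fin (p + s)))
          (e0 (pr (M p K a) b W c)) = e0 (rep W y (e0.symm (e0 (pr (M p K a) b W c)))) := rfl
        rw [h1, Equiv.symm_apply_apply, rep_apply]
        congr 1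
        have hc : c ∈ ob (M p K a) b := mem_ob.2 ⟨k', hk'm, hk'c⟩
        rw [← pr_smul hW y hc, hy]
  · -- several cycles
    left
    have hlt : Fintype.card BB < Fintype.card Ω := by
      have h1 : (ob (M p K a) b).card = Fintype.card BB * wd (M p K a) b W := card_ob hW
      rw [← hw] at h1
      have h2 : (ob (M p K a) b).card < Fintype.card Ω := by
        apply Finset.card_lt_univ_of_notMem (x := a)
        intro ha
        obtain ⟨m, hm, hma⟩ := mem_ob.1 ha
        exact hab (m.injective (hma.trans (M_fix hm).symm))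
      calc Fintype.card BB ≤ Fintype.card BB * w := Nat.le_mul_of_pos_right _ hw1
        _ = (ob (M p K a) b).card := h1.symm
        _ < _ := h2
    have hP := hIH BB (rep W).range hlt hpr hXcard xb hxbm hxbp k hk2 (by omega) hsupp (by rw [hcard]; omega)
    obtain ⟨c, hpc, hc2, hc3, he⟩ := hP
    obtain ⟨u, rfl⟩ : ∃ u, c = p + u := ⟨c - p, by omega⟩
    obtain ⟨hu5, hup, hs1⟩ := arith hp3 rfl hc2 hc3 hcard (by omega) hsk
    obtain ⟨c, k', hk'm, hk'c, hxc⟩ := hfixpt hs1
    rcases he with he | he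
    · obtain ⟨e⟩ := he
      refine altType_of hab hWc hW (by omega) hup (e.toMonoidHom.comp (rep W).rangeRestrict)
        (e.surjective.comp (rep W).rangeRestrict_surjective) ?_ hk'm hk'c hx hxp hxa hxc (Or.inl hu5)
      intro m hm
      have h1 : e ((rep W).rangeRestrict m) = 1 := hm
      have h2 := (map_eq_one_iff e e.injective).1 h1
      exact congrArg Subtype.val h2
    · obtain ⟨e⟩ := he
      exfalso
      have h1 := hom_sign (odd_p h) ((Equiv.Perm.sign (α := Fin (p + u))).comp (e.toMonoidHom.comp (rep W).rangeRestrict))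
      have : Nontrivial (Fin (p + u)) := Fin.nontrivial_iff_two_le.2 (by omega)
      obtain ⟨σ, hσ⟩ := Equiv.Perm.sign_surjective (Fin (p + u)) (-1)
      obtain ⟨m, hm⟩ := (e.surjective.comp (rep W).rangeRestrict_surjective) σ
      have h2 := h1 m
      have h3 : Equiv.Perm.sign σ = 1 := by rw [← hm]; exact h2
      rw [hσ] at h3
      exact absurd h3 (by decide)

end blk

end Cfsg.Agent.H334.PrA
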